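import Cfsg.Agent.Lib.Helper21.OAsch.Defs
import Cfsg.Agent.Lib.Helper13.OrthWrap
import Cfsg.Agent.Lib.Helper13.OrthPar
import Cfsg.Agent.Lib.Helper13.OrthND

set_option autoImplicit false

namespace Cfsg.Agent.Lib.Helper51.OAsch

open Cfsg Cfsg.Geo Matrix Cfsg.Agent.Lib.Helper13.Asch Cfsg.Agent.Lib.Helper21.OAsch
open Cfsg.Agent.Lib.Helper13.O Cfsg.Agent.Lib.Helper94 Cfsg.Agent.Lib.Helper44
open scoped Kronecker MatrixGroups

variable {ι : Type} [Fintype ι] [DecidableEq ι] {F : Type*} [Field F]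

theorem two_ne_zero_of_odd [Fintype F] (hodd : Odd (Fintype.card F)) : (2 : F) ≠ 0 := by
  intro h
  have hch : ringChar F = 2 := CharP.ringChar_of_prime_eq_zero Nat.prime_two (by exact_mod_cast h)
  have := (FiniteField.even_card_iff_char_two).1 hch
  exact (Nat.not_even_iff_odd.2 hodd) (Nat.even_iff.2 this)

/-- transfer of "some element of `Om Q` is not in the stabiliser" to `GL`. -/
theorem not_le_of_exists (Q : QuadraticForm F (ι → F)) (S : Subgroup (GL ι F))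
    (stab : ((ι → F) ≃ₗ[F] (ι → F)) → Prop)
    (hS : ∀ g, g ∈ S → stab (Cfsg.Agent.Lib.Helper94.glEquiv ι F g))
    (hne : ∃ φ ∈ Om Q, ¬ stab φ) : ¬ omegaGL ⇑Q ≤ S := by
  intro hle
  obtain ⟨φ, hφI, hφS⟩ := hne
  have h1 : (Cfsg.Agent.Lib.Helper94.glEquiv ι F).symm φ ∈ omegaGL ⇑Q := by
    rw [mem_omegaGL_iff, MulEquiv.apply_symm_apply]; exact hφI
  have := hS _ (hle h1)
  rw [MulEquiv.apply_symm_apply] at this
  exact hφS this

/-- R1 -/
theorem not_le_singular [Fintype F] (hodd : Odd (Fintype.card F)) (m : ℕ) (hm : 3 ≤ m)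
    (W : Submodule F (Unit ⊕ (Fin m ⊕ Fin m) → F)) (hW0 : W ≠ ⊥)
    (hW : IsTotallySingularQuad (quadFormOdd m F) W) :
    ¬ omegaGL (quadFormOdd m F) ≤ subspaceStabilizer W := by
  have h2 := two_ne_zero_of_odd hodd
  have hQn : (QuadraticMap.polarBilin (oddQF m F)).Nondegenerate := oddQF_nondeg m F h2
  have hfr : Module.finrank F (Unit ⊕ (Fin m ⊕ Fin m) → F) = 2 * m + 1 := by
    simp; ring
  rw [← oddQF_coe] at hW ⊢
  exact not_le_of_exists (oddQF m F) (subspaceStabilizer W) (fun φ => ∀ w ∈ W, φ w ∈ W)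
    (fun g => (mem_subspaceStabilizer_iff g W).1) (par_ne hQn (by omega) hW hW0)

/-- R2 -/
theorem not_le_nondeg [Fintype F] (hodd : Odd (Fintype.card F)) (m : ℕ) (hm : 3 ≤ m)
    (W : Submodule F (Unit ⊕ (Fin m ⊕ Fin m) → F)) (hW0 : W ≠ ⊥) (hW1 : W ≠ ⊤)
    (hW : IsNondegenerateOn (QuadraticMap.polar (quadFormOdd m F)) W) :
    ¬ omegaGL (quadFormOdd m F) ≤ subspaceStabilizer W := by
  have h2 := two_ne_zero_of_odd hodd
  have hQn : (QuadraticMap.polarBilin (oddQF m F)).Nondegenerate := oddQF_nondeg m F h2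
  have hfr : Module.finrank F (Unit ⊕ (Fin m ⊕ Fin m) → F) = 2 * m + 1 := by
    simp; ring
  rw [← oddQF_coe] at hW ⊢
  have hOD : OD (oddQF m F) W (LinearMap.BilinForm.orthogonal (QuadraticMap.polarBilin (oddQF m F)) W) :=
    OD_of_nondeg hQn (fun w hw hw0 => (hW w hw hw0).1)
  have hadd := hOD.finrank_add
  have hW' : LinearMap.BilinForm.orthogonal (QuadraticMap.polarBilin (oddQF m F)) W ≠ ⊥ := by
    intro hb
    rw [hb, finrank_bot, add_zero] at hadd
    exact hW1 (Submodule.eq_top_of_finrank_eq hadd)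
  refine not_le_of_exists (oddQF m F) (subspaceStabilizer W) (fun φ => ∀ w ∈ W, φ w ∈ W)
    (fun g => (mem_subspaceStabilizer_iff g W).1) ?_
  by_cases hle : Module.finrank F
      (LinearMap.BilinForm.orthogonal (QuadraticMap.polarBilin (oddQF m F)) W) ≤ Module.finrank F W
  · exact hOD.ne hQn (by omega) (by omega) hW'
  · obtain ⟨φ, hφ, hs⟩ := hOD.symm.ne hQn (by omega) (by omega) hW0
    exact ⟨φ, hφ, fun hs' => hs (hOD.stab_symm hQn (Om_le_OQ _ hφ) hs')⟩

end Cfsg.Agent.Lib.Helper51.OAsch
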