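import Cfsg.Agent.Lib.Helper51.OAsch.R1
import Cfsg.Agent.Lib.Helper55.Asch.DecCore
import Cfsg.Agent.Lib.Helper94.SympDecompWrap

set_option autoImplicit false

namespace Cfsg.Agent.Lib.Helper51.OAsch

open Cfsg Cfsg.Geo Matrix Cfsg.Agent.Lib.Helper13.Asch Cfsg.Agent.Lib.Helper21.OAsch
open Cfsg.Agent.Lib.Helper13.O Cfsg.Agent.Lib.Helper94 Cfsg.Agent.Lib.Helper44
open QuadraticMap
open scoped Kronecker MatrixGroups

variable {ι : Type} [Fintype ι] [DecidableEq ι] {F : Type*} [Field F]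

/-- R3 -/
theorem not_le_decomp [Fintype F] (hodd : Odd (Fintype.card F)) (m : ℕ) (hm : 3 ≤ m) {t k : ℕ}
    (D : Fin t → Submodule F (Unit ⊕ (Fin m ⊕ Fin m) → F))
    (hD : IsOrthogonalMDecomposition (quadFormOdd m F) k D) :
    ¬ omegaGL (quadFormOdd m F) ≤ decompositionStabilizer D := by
  have h2 := two_ne_zero_of_odd hodd
  have hQn : (QuadraticMap.polarBilin (oddQF m F)).Nondegenerate := oddQF_nondeg m F h2
  have hfr : Module.finrank F (Unit ⊕ (Fin m ⊕ Fin m) → F) = 2 * m + 1 := by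
    simp; ring
  have hcard : Fintype.card (Unit ⊕ (Fin m ⊕ Fin m)) = 2 * m + 1 := by simp; ring
  have htk := Cfsg.Agent.Lib.Helper55.Asch.card_of_decomp D hD.decomp.decomp
  rw [hcard] at htk
  have ht := hD.decomp.decomp.two_le
  have hk := hD.decomp.decomp.pos
  rw [← oddQF_coe] at hD ⊢
  set Q := oddQF m F with hQdef
  set i₀ : Fin t := ⟨0, by omega⟩ with hi₀
  have hnd := hD.decomp.nondegenerate i₀
  have hOD : OD Q (D i₀) (LinearMap.BilinForm.orthogonal (QuadraticMap.polarBilin Q) (D i₀)) :=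
    OD_of_nondeg hQn (fun w hw hw0 => (hnd w hw hw0).1)
  set W' := LinearMap.BilinForm.orthogonal (QuadraticMap.polarBilin Q) (D i₀) with hW'
  have hadd := hOD.finrank_add
  rw [hD.decomp.decomp.finrank_eq i₀, hfr] at hadd
  have h3 : 3 ≤ Module.finrank F W' := by
    obtain ⟨s, rfl⟩ : ∃ s, t = s + 2 := ⟨t - 2, by omega⟩
    have h5 : (s + 2) * k = s * k + k + k := by ring
    have h0 : 0 ≤ s * k := Nat.zero_le _
    omega
  -- a nonsingular vector of the first block
  obtain ⟨v, hv, hQv⟩ : ∃ v ∈ D i₀, Q v ≠ 0 := by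
    have hne : D i₀ ≠ ⊥ := by
      intro hb
      have := hD.decomp.decomp.finrank_eq i₀
      rw [hb, finrank_bot] at this
      omega
    obtain ⟨w, hw, hw0⟩ := Submodule.exists_mem_ne_zero_of_ne_bot hne
    obtain ⟨x, hx, hxw⟩ := (hnd w hw hw0).1
    by_contra hcon
    push Not at hcon
    apply hxw
    change Q (x + w) - Q x - Q w = 0
    rw [hcon _ ((D i₀).add_mem hx hw), hcon _ hx, hcon _ hw]
    simp
  obtain ⟨c, hc, hc0, hQc⟩ := exists_singular_of_finrank Q W' h3
  have hvc : polar Q v c = 0 := hOD.orth v hv c hc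
  have hcv : polar Q c v = 0 := by rw [polar_comm]; exact hvc
  refine not_le_of_exists Q (decompositionStabilizer D) (fun φ => DecStab D φ)
    (fun g => (mem_decompositionStabilizer_iff D g).1)
    ⟨eichler Q c v hQc hcv, eichler_mem_Om hQn (by omega) _ _ _ _, ?_⟩
  rintro ⟨σ, hσ⟩
  have hmem : eichler Q c v hQc hcv v ∈ D (σ i₀) := by
    rw [← hσ i₀]; exact Submodule.mem_map_of_mem hv
  rw [eichler_apply, hcv, polar_self] at hmem
  simp only [zero_smul, sub_zero, mul_zero] at hmem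
  have h2Q : (2 : F) * Q v ≠ 0 := mul_ne_zero h2 hQv
  by_cases hl : σ i₀ = i₀
  · rw [hl] at hmem
    have h6 : (2 * Q v) • c ∈ D i₀ := by
      have := (D i₀).sub_mem hmem hv
      simpa using this
    have h7 : c ∈ D i₀ := by
      have := (D i₀).smul_mem (2 * Q v)⁻¹ h6
      rwa [smul_smul, inv_mul_cancel₀ h2Q, one_smul] at this
    have h8 : c ∈ D i₀ ⊓ W' := ⟨h7, hc⟩
    rw [hOD.compl.inf_eq_bot, Submodule.mem_bot] at h8
    exact hc0 h8
  · have h6 := hD.decomp.orthogonal (σ i₀) i₀ hl _ hmem v hv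
    rw [polar_add_left, polar_smul_left, hcv, polar_self] at h6
    simp only [smul_eq_mul, mul_zero, add_zero] at h6
    exact h2Q (by rw [two_mul, ← two_smul ℕ]; exact h6)

end Cfsg.Agent.Lib.Helper51.OAsch
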