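import Cfsg.Agent.Lib.Helper51.OAsch.R1
import Cfsg.Agent.Lib.Helper45.OSubWrap

set_option autoImplicit false

namespace Cfsg.Agent.Lib.Helper51.OAsch

open Cfsg Cfsg.Geo Matrix Cfsg.Agent.Lib.Helper13.Asch Cfsg.Agent.Lib.Helper21.OAsch
open Cfsg.Agent.Lib.Helper13.O Cfsg.Agent.Lib.Helper94 Cfsg.Agent.Lib.Helper44
open Cfsg.Agent.Lib.Helper45.OSub Cfsg.Agent.Lib.Helper45.SpSub
open QuadraticMap Module
open scoped Kronecker MatrixGroups

variable {ι : Type} [Fintype ι] [DecidableEq ι] {F : Type*} [Field F]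
variable {F₀ : Subfield F} {P : Matrix.GeneralLinearGroup ι F}

/-- the rational form is nondegenerate -/
theorem Qq_nondeg (Q : QuadraticForm F (ι → F)) (hQ : (polarBilin Q).Nondegenerate)
    (hP : ∀ u : ι → F₀, Q (EE F₀ P u) ∈ F₀) : (polarBilin (Qq Q hP)).Nondegenerate := by
  have hz : ∀ x : ι → F₀, (∀ y, polar (Qq Q hP) x y = 0) → x = 0 := by
    intro x hx
    have h0 : EE F₀ P x = 0 := by
      apply hQ.1
      intro y
      change polar Q (EE F₀ P x) y = 0
      have hy : y ∈ Submodule.span F (Set.range (EE F₀ P)) := (span_EE F₀ P) ▸ Submodule.mem_top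
      induction hy using Submodule.span_induction with
      | mem z hz =>
        obtain ⟨z, rfl⟩ := hz
        rw [← Qq_polar Q hP, hx z]; rfl
      | zero => simp
      | add a b _ _ ha hb => rw [polar_add_right, ha, hb, add_zero]
      | smul a b _ hb => rw [polar_smul_right, hb, smul_zero]
    apply EE_injective F₀ P
    rw [h0]
    have := EE_smul F₀ P 0 0
    simpa using this.symm
  refine ⟨fun x hx => hz x hx, fun x hx => hz x (fun y => ?_)⟩
  rw [polar_comm]
  exact hx y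

/-- a non-rational Eichler transformation does not stabilise the rational structure
(dimension at least seven). -/
theorem exists_not_stab [Fintype F] (Q : QuadraticForm F (ι → F))
    (hQ : (polarBilin Q).Nondegenerate) (hι : 7 ≤ Fintype.card ι)
    (hP : ∀ u : ι → F₀, Q (EE F₀ P u) ∈ F₀) {θ : F} (hθ : θ ∉ F₀) :
    ∃ φ ∈ Om Q, ¬ Stab (EE F₀ P) φ := by
  classical
  have := Fintype.ofFinite F₀
  set Q₀ := Qq Q hP with hQ₀
  have hnd₀ : (polarBilin Q₀).Nondegenerate := Qq_nondeg Q hQ hP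
  have hdim₀ : finrank F₀ (ι → F₀) = Fintype.card ι := by simp
  have hdim : finrank F (ι → F) = Fintype.card ι := by simp
  obtain ⟨e, f, -, -, hQe, -, hef⟩ := exists_hyp hnd₀ ∅ (by simp; omega)
  have hc : ({e, f} : Finset (ι → F₀)).card ≤ 2 := Finset.card_le_two
  obtain ⟨v, hv, hQv⟩ := exists_ns hnd₀ {e, f} (by omega)
  rw [Cfsg.Agent.Lib.Helper13.O.mem_orth] at hv
  have hev : polar Q₀ e v = 0 := hv e (by simp)
  have hfv : polar Q₀ f v = 0 := hv f (by simp)
  have hv0 : v ≠ 0 := by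
    rintro rfl
    simp at hQv
  obtain ⟨z, hz⟩ := polar_nondeg_exists hnd₀ hv0
  set w := z - polar Q₀ e z • f with hw
  have hew : polar Q₀ e w = 0 := by
    rw [hw, polar_sub_right, polar_smul_right, hef]; simp
  have hvw : polar Q₀ v w = 1 := by
    rw [hw, polar_sub_right, polar_smul_right, polar_comm Q₀ v f, hfv, polar_comm Q₀ v z, hz]; simp
  have pol : ∀ a b, polar Q (EE F₀ P a) (EE F₀ P b) = ((polar Q₀ a b : F₀) : F) :=
    fun a b => (Qq_polar Q hP a b).symm
  have hQeF : Q (EE F₀ P e) = 0 := by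
    rw [← Qq_coe Q hP e]
    change ((Q₀ e : F₀) : F) = 0
    rw [hQe]; rfl
  have hp : polar Q (EE F₀ P e) (θ • EE F₀ P v) = 0 := by
    rw [polar_smul_right, pol, hev]; simp
  refine ⟨eichler Q (EE F₀ P e) (θ • EE F₀ P v) hQeF hp,
    eichler_mem_Om hQ (by omega) _ _ _ _, ?_⟩
  rintro ⟨c, hc⟩
  obtain ⟨y, hy⟩ := hc e
  rw [eichler_apply, polar_smul_left, pol, pol, polar_comm Q₀ v e, hev, polar_self, hQe] at hy
  simp only [ZeroMemClass.coe_zero, smul_zero, zero_smul, add_zero, sub_zero, mul_zero] at hy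
  have h1 : (1 : F) = c * ((polar Q₀ y f : F₀) : F) := by
    have := congrArg (fun t => polar Q t (EE F₀ P f)) hy
    simp only [polar_smul_left, pol, hef, smul_eq_mul] at this
    simpa using this
  have hne : ((polar Q₀ y f : F₀) : F) ≠ 0 := by
    intro h0
    rw [h0, mul_zero] at h1
    exact one_ne_zero h1
  have hcF : c ∈ F₀ := by
    have : c = ((polar Q₀ y f : F₀) : F)⁻¹ := by
      field_simp
      exact h1.symm
    rw [this]
    exact F₀.inv_mem (Subtype.prop _)
  obtain ⟨y', hy'⟩ := hc w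
  rw [eichler_apply, polar_smul_left, pol, pol, hvw, hew] at hy'
  simp only [ZeroMemClass.coe_zero, OneMemClass.coe_one, smul_eq_mul, mul_one, zero_smul, sub_zero,
    mul_zero] at hy'
  have h2 := congrArg (fun t => polar Q t (EE F₀ P f)) hy'
  simp only [polar_add_left, polar_smul_left, pol, hef, smul_eq_mul, OneMemClass.coe_one,
    mul_one] at h2
  apply hθ
  have h3 : θ = c * ((polar Q₀ y' f : F₀) : F) - ((polar Q₀ w f : F₀) : F) := by
    rw [← h2]; ring
  rw [h3]
  exact F₀.sub_mem (F₀.mul_mem hcF (Subtype.prop _)) (Subtype.prop _)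

/-- R4 -/
theorem not_le_subfield [Fintype F] (hodd : Odd (Fintype.card F)) (m : ℕ) (hm : 3 ≤ m)
    (F₀ : Subfield F) (r : ℕ) (hr : r.Prime) (hcard : Fintype.card F = Nat.card F₀ ^ r)
    (P : GL (Unit ⊕ (Fin m ⊕ Fin m)) F) (hP : IsQuadFormRationalStructure (quadFormOdd m F) F₀ P) :
    ¬ omegaGL (quadFormOdd m F) ≤ subfieldSubgroup F₀ P := by
  have h2 := two_ne_zero_of_odd hodd
  have hQn : (QuadraticMap.polarBilin (oddQF m F)).Nondegenerate := oddQF_nondeg m F h2
  have hcard' : Fintype.card (Unit ⊕ (Fin m ⊕ Fin m)) = 2 * m + 1 := by simp; ring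
  rw [← oddQF_coe] at hP ⊢
  have hP' : ∀ u : (Unit ⊕ (Fin m ⊕ Fin m)) → F₀, (oddQF m F) (EE F₀ P u) ∈ F₀ :=
    fun u => hP _ (fun i => (u i).2)
  obtain ⟨θ, hθ⟩ := exists_not_mem_subfield F₀ r hr hcard
  exact not_le_of_exists (oddQF m F) (subfieldSubgroup F₀ P) (Stab (EE F₀ P))
    (fun g => (mem_subfield_iff_stab F₀ P g).1)
    (exists_not_stab (oddQF m F) hQn (by omega) hP' hθ)

end Cfsg.Agent.Lib.Helper51.OAsch
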